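import Mathlib

/-!
A planar difference set in an abelian group of order `q² + q + 1`, without the identity, cannot be
closed under inversion on a subgroup of index one or three.
-/

set_option autoImplicit false

namespace CfsgLib.Geometric.SLThree.Planar

variable {P : Type*} [CommGroup P] [Fintype P] [DecidableEq P] {D : Finset P}

/-- Differences inside the cosets of `H` correspond to the non-identity elements of `H`. -/
lemma sum_offDiag (hpl : ∀ g : P, g ≠ 1 → ∃! x, x ∈ D ∧ g * x ∈ D) (H : Subgroup P)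
    [Fintype (P ⧸ H)] [DecidableEq (P ⧸ H)] :
    ∑ c : P ⧸ H, (D.filter fun x : P => (x : P ⧸ H) = c).offDiag.card + 1 = Nat.card H := by
  classical
  have h1 : (D.offDiag.filter fun z => z.1 / z.2 ∈ H).card =
      ((Finset.univ.filter fun g : P => g ∈ H).erase 1).card := by
    refine Finset.card_bij (fun z _ => z.1 / z.2) ?_ ?_ ?_
    · intro z hz
      rw [Finset.mem_filter, Finset.mem_offDiag] at hz
      simp [hz.2, div_eq_one, hz.1.2.2]
    · intro z hz z' hz' he
      rw [Finset.mem_filter, Finset.mem_offDiag] at hz hz'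
      have e2 : z.2 = z'.2 := by
        refine (hpl (z.1 / z.2) (fun h => hz.1.2.2 (div_eq_one.1 h))).unique
          ⟨hz.1.2.1, by rw [div_mul_cancel]; exact hz.1.1⟩
          ⟨hz'.1.2.1, by rw [he, div_mul_cancel]; exact hz'.1.1⟩
      exact Prod.ext (by rw [← div_mul_cancel z.1 z.2, he, e2, div_mul_cancel]) e2
    · intro g hg
      simp only [Finset.mem_erase, Finset.mem_filter, Finset.mem_univ, true_and] at hg
      obtain ⟨x, ⟨hx, hgx⟩, -⟩ := hpl g hg.1
      refine ⟨(g * x, x), ?_, mul_div_cancel_right g x⟩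
      rw [Finset.mem_filter, Finset.mem_offDiag]
      exact ⟨⟨hgx, hx, fun h => hg.1 (mul_eq_right.1 h)⟩, by rw [mul_div_cancel_right]; exact hg.2⟩
  have h2 : (D.offDiag.filter fun z => z.1 / z.2 ∈ H).card =
      ∑ c : P ⧸ H, (D.filter fun x : P => (x : P ⧸ H) = c).offDiag.card := by
    rw [Finset.card_eq_sum_card_fiberwise (f := fun z : P × P => (z.2 : P ⧸ H)) (t := Finset.univ)
      (fun _ _ => Finset.mem_univ _)]
    refine Finset.sum_congr rfl fun c _ => congrArg Finset.card ?_
    ext z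
    simp only [Finset.mem_filter, Finset.mem_offDiag]
    constructor
    · rintro ⟨⟨⟨h1, h2, h3⟩, hH⟩, rfl⟩
      exact ⟨⟨h1, QuotientGroup.eq_iff_div_mem.2 hH⟩, ⟨h2, rfl⟩, h3⟩
    · rintro ⟨⟨h1, e1⟩, ⟨h2, e2⟩, h3⟩
      exact ⟨⟨⟨h1, h2, h3⟩, QuotientGroup.eq_iff_div_mem.1 (e1.trans e2.symm)⟩, e2⟩
  rw [← h2, h1, Finset.card_erase_add_one (by simp [one_mem]), Nat.card_eq_fintype_card,
    Fintype.card_subtype]

lemma card_D {q : ℕ} (hP : Nat.card P = q ^ 2 + q + 1) (hq : 0 < q)
    (hpl : ∀ g : P, g ≠ 1 → ∃! x, x ∈ D ∧ g * x ∈ D) : D.card = q + 1 := by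
  classical
  have h := sum_offDiag hpl (⊤ : Subgroup P)
  have : Subsingleton (P ⧸ (⊤ : Subgroup P)) := QuotientGroup.subsingleton_quotient_top
  rw [Fintype.sum_subsingleton _ ((1 : P) : P ⧸ (⊤ : Subgroup P)),
    Finset.filter_true_of_mem (fun x _ => Subsingleton.elim _ _), Finset.offDiag_card,
    Subgroup.card_top, hP] at h
  have h2 : D.card ≤ D.card * D.card := Nat.le_mul_self _
  have h3 : D.card * D.card = D.card + q ^ 2 + q := by omega
  rcases Nat.lt_or_ge D.card (q + 1) with hlt | hge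
  · nlinarith
  · rcases hge.lt_or_eq with hgt | he
    · nlinarith
    · exact he.symm

lemma arith_zero {q m b e : ℕ} (hq : 5 ≤ q) (hm : 3 * m = q ^ 2 + q + 1) (hbe : b + e = q + 1)
    (h : b * b + e * e + 1 = q + 1 + m) : False := by
  zify at hm hbe h
  nlinarith [sq_nonneg ((b : ℤ) - e), sq_nonneg ((q : ℤ) - 1)]

lemma arith_two {q m b e : ℕ} (hq : 5 ≤ q) (hm : 3 * m = q ^ 2 + q + 1) (hbe : b + e + 2 = q + 1)
    (h : 2 + b * b + e * e + 1 = q + 1 - 2 + m) : False := by
  have hq12 : q < 12 := by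
    by_contra hc
    push Not at hc
    have h1 : 2 + b * b + e * e + 1 + 2 = q + 1 + m := by omega
    zify at hm hbe h1 hc
    nlinarith [sq_nonneg ((b : ℤ) - e)]
  have hb : b ≤ 12 := by omega
  have he : e ≤ 12 := by omega
  interval_cases q <;> try omega
  all_goals interval_cases b <;> try omega
  all_goals interval_cases e <;> omega

/-- A planar set avoiding `1` cannot be closed under inversion on a subgroup of index `1` or
`3`. -/
theorem planar_false {q : ℕ} (hq : 5 ≤ q) (hP : Nat.card P = q ^ 2 + q + 1) (H : Subgroup P)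
    (hH : H.index = 1 ∨ H.index = 3) (hpl : ∀ g : P, g ≠ 1 → ∃! x, x ∈ D ∧ g * x ∈ D)
    (h1 : (1 : P) ∉ D) (hinv : ∀ x ∈ D, x ∈ H → x⁻¹ ∈ D) : False := by
  classical
  have hcard := H.card_mul_index
  have hodd : Odd (q ^ 2 + q + 1) :=
    Even.add_one (by rw [show q ^ 2 + q = q * (q + 1) by ring]; exact Nat.even_mul_succ_self q)
  have hHodd : Odd (Nat.card H) :=
    Odd.of_dvd_nat (hP ▸ hodd) ⟨_, hcard.symm⟩
  set S : Finset P := D.filter fun x : P => (x : P ⧸ H) = ((1 : P) : P ⧸ H) with hS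
  have memS : ∀ x, x ∈ S ↔ x ∈ D ∧ x ∈ H := fun x => by
    rw [hS, Finset.mem_filter, QuotientGroup.eq_iff_div_mem, div_one]
  have hk2 : S.card ≤ 2 := by
    by_contra hc
    obtain ⟨s, hs⟩ := Finset.card_pos.1 (show 0 < S.card by omega)
    obtain ⟨t, ht, htn⟩ := Finset.exists_mem_notMem_of_card_lt_card
      (show ({s, s⁻¹} : Finset P).card < S.card by
        have := Finset.card_insert_le s ({s⁻¹} : Finset P)
        rw [Finset.card_singleton] at this
        omega)
    simp only [Finset.mem_insert, Finset.mem_singleton, not_or] at htn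
    obtain ⟨hsD, hsH⟩ := (memS s).1 hs
    obtain ⟨htD, htH⟩ := (memS t).1 ht
    refine htn.1 (inv_injective ((hpl (s * t) ?_).unique ⟨hinv t htD htH, ?_⟩ ⟨hinv s hsD hsH, ?_⟩))
    · intro h
      exact htn.2 (eq_inv_of_mul_eq_one_right h)
    · rw [mul_inv_cancel_right]; exact hsD
    · rw [mul_comm s t, mul_inv_cancel_right]; exact htD
  have hk1 : S.card ≠ 1 := by
    intro hc
    obtain ⟨s, hs⟩ := Finset.card_eq_one.1 hc
    obtain ⟨hsD, hsH⟩ := (memS s).1 (hs ▸ Finset.mem_singleton_self s)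
    have he : s⁻¹ = s := Finset.mem_singleton.1
      (hs ▸ (memS s⁻¹).2 ⟨hinv s hsD hsH, inv_mem hsH⟩)
    have hsq : s ^ 2 = 1 := by rw [pow_two, ← inv_eq_iff_mul_eq_one]; exact he
    have hcop : Nat.Coprime 2 (Nat.card H) := Nat.coprime_two_left.2 hHodd
    have hs1 : orderOf s ∣ Nat.gcd 2 (Nat.card H) :=
      Nat.dvd_gcd (orderOf_dvd_of_pow_eq_one hsq) (H.orderOf_dvd_natCard hsH)
    rw [hcop.gcd_eq_one, Nat.dvd_one, orderOf_eq_one_iff] at hs1
    exact h1 (hs1 ▸ hsD)
  have hD := card_D hP (by omega) hpl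
  have hsum := sum_offDiag hpl H
  rw [hP] at hcard
  have hcq : Nat.card (P ⧸ H) = H.index := rfl
  rcases hH with hi | hi
  · rw [hi, Nat.card_eq_one_iff_unique] at hcq
    have := hcq.1
    have hSD : S = D := Finset.filter_true_of_mem fun x _ => Subsingleton.elim _ _
    rw [hSD, hD] at hk2
    omega
  · rw [hi, mul_comm] at hcard
    obtain ⟨a, b, hab, huniv⟩ := Finset.card_eq_two.1 (show (Finset.univ.erase
        ((1 : P) : P ⧸ H)).card = 2 by
      rw [Finset.card_erase_of_mem (Finset.mem_univ _), Finset.card_univ,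
        ← Nat.card_eq_fintype_card, hcq, hi])
    have hu : (Finset.univ : Finset (P ⧸ H)) = insert ((1 : P) : P ⧸ H) {a, b} := by
      rw [← huniv, Finset.insert_erase (Finset.mem_univ _)]
    have hn : ((1 : P) : P ⧸ H) ∉ ({a, b} : Finset (P ⧸ H)) := by
      rw [← huniv]; exact Finset.notMem_erase _ _
    have htot : D.card = S.card + ((D.filter fun x : P => (x : P ⧸ H) = a).card +
        (D.filter fun x : P => (x : P ⧸ H) = b).card) := by
      rw [Finset.card_eq_sum_card_fiberwise (f := fun x : P => (x : P ⧸ H)) (t := Finset.univ)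
        (fun _ _ => Finset.mem_univ _), hu, Finset.sum_insert hn, Finset.sum_pair hab]
    rw [hu, Finset.sum_insert hn, Finset.sum_pair hab] at hsum
    simp only [Finset.offDiag_card, ← hS] at hsum
    set u := (D.filter fun x : P => (x : P ⧸ H) = a).card
    set v := (D.filter fun x : P => (x : P ⧸ H) = b).card
    have hu' : u ≤ u * u := Nat.le_mul_self _
    have hv' : v ≤ v * v := Nat.le_mul_self _
    rw [hD] at htot
    obtain hk | hk : S.card = 0 ∨ S.card = 2 := by omega
    · rw [hk] at hsum htot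
      exact arith_zero hq hcard (b := u) (e := v) (by omega) (by omega)
    · rw [hk] at hsum htot
      exact arith_two hq hcard (b := u) (e := v) (by omega) (by omega)

end CfsgLib.Geometric.SLThree.Planar
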