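import Cfsg.Agent.Lib.Geometric.SLThree.Singer.Field
import Cfsg.Agent.Lib.Geometric.SLThree.Singer.Planar

/-!
The hyperplane of a functional in a cubic extension gives a planar difference set in the projective
multiplicative group; it cannot be symmetric on the elements of norm one.
-/

set_option autoImplicit false

namespace CfsgLib.Geometric.SLThree

variable {F : Type*} [Field F] [Fintype F] {E : Type*} [Field E] [Algebra F E]

theorem no_symmetric_functional (h3 : Module.finrank F E = 3) (hq : 5 ≤ Fintype.card F)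
    (ψ : E →ₗ[F] F) (h1 : ψ 1 = 1)
    (hsym : ∀ k ∈ normOne F E, ψ (k : E) = 0 → ψ ((k⁻¹ : Eˣ) : E) = 0) : False := by
  classical
  have := finite_ext h3
  have : Finite E := Module.finite_of_finite F
  set n := Fintype.card F ^ 2 + Fintype.card F + 1 with hn
  set R := (Units.map (algebraMap F E : F →* E)).range with hR
  have hmemR : ∀ k : Eˣ, k ∈ R ↔ ∃ a : Fˣ, algebraMap F E a = k := fun k =>
    ⟨fun ⟨a, ha⟩ => ⟨a, congrArg Units.val ha⟩, fun ⟨a, ha⟩ => ⟨a, Units.ext ha⟩⟩
  have : Fintype (Eˣ ⧸ R) := Fintype.ofFinite _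
  -- the difference set
  set D : Finset (Eˣ ⧸ R) := Finset.univ.filter fun x => ψ (x.out : E) = 0 with hD
  have memD : ∀ k : Eˣ, (k : Eˣ ⧸ R) ∈ D ↔ ψ (k : E) = 0 := by
    intro k
    obtain ⟨⟨r, hr⟩, he⟩ := QuotientGroup.mk_out_eq_mul R k
    obtain ⟨a, ha⟩ := (hmemR r).1 hr
    rw [hD, Finset.mem_filter]
    simp only [Finset.mem_univ, true_and]
    rw [he, Units.val_mul, ← ha, mul_comm, ← Algebra.smul_def, map_smul, smul_eq_mul,
      mul_eq_zero]
    exact ⟨fun h => h.resolve_left a.ne_zero, Or.inr⟩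
  -- order
  have hP : Nat.card (Eˣ ⧸ R) = n := by
    have hRc : Nat.card R = Fintype.card F - 1 := by
      rw [hR, ← Nat.card_congr (MonoidHom.ofInjective (Units.map_injective
        (f := (algebraMap F E : F →* E)) (algebraMap F E).injective)).toEquiv,
        Nat.card_eq_fintype_card, Fintype.card_units]
    have h := R.card_eq_card_quotient_mul_card_subgroup
    rw [hRc, Nat.card_units] at h
    have h' := card_normOne_mul (F := F) (E := E)
    rw [card_normOne h3, h] at h'
    exact (Nat.eq_of_mul_eq_mul_right (by omega) h').symm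
  -- planarity
  have hker : Module.finrank F (LinearMap.ker ψ) = 2 := by
    have h := LinearMap.finrank_range_add_finrank_ker ψ
    rw [LinearMap.range_eq_top.2 (fun a => ⟨a • 1, by rw [map_smul, h1, smul_eq_mul, mul_one]⟩),
      finrank_top, Module.finrank_self, h3] at h
    omega
  have hpl : ∀ g : Eˣ ⧸ R, g ≠ 1 → ∃! x, x ∈ D ∧ g * x ∈ D := by
    intro g hg
    obtain ⟨γ, rfl⟩ := QuotientGroup.mk_surjective g
    set T := ψ.comp (LinearMap.mulLeft F (γ : E)) with hT
    set L := LinearMap.ker ψ ⊓ LinearMap.ker T with hL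
    have hmemL : ∀ k : E, k ∈ L ↔ ψ k = 0 ∧ ψ ((γ : E) * k) = 0 := fun k => Iff.rfl
    have hlt : L < LinearMap.ker ψ := by
      refine lt_of_le_of_ne inf_le_left fun he => hg ?_
      have hle : LinearMap.ker ψ ≤ LinearMap.ker T := he ▸ inf_le_right
      by_cases hz : (γ : E) - algebraMap F E (ψ γ) = 0
      · rw [QuotientGroup.eq_one_iff, hmemR]
        have hne : ψ (γ : E) ≠ 0 := fun h0 => γ.ne_zero (by
          rw [sub_eq_zero.1 hz, h0, map_zero])
        exact ⟨Units.mk0 _ hne, (sub_eq_zero.1 hz).symm⟩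
      · exfalso
        set x := ((γ : E) - algebraMap F E (ψ γ))⁻¹
        have hx : x - ψ x • 1 ∈ LinearMap.ker ψ := by
          rw [LinearMap.mem_ker, map_sub, map_smul, h1, smul_eq_mul, mul_one, sub_self]
        have h2 : ψ ((γ : E) * (x - ψ x • 1)) = 0 := hle hx
        rw [mul_sub, mul_smul_comm, mul_one, map_sub, map_smul, smul_eq_mul, sub_eq_zero] at h2
        have h0 : ψ (((γ : E) - algebraMap F E (ψ γ)) * x) = 0 := by
          rw [sub_mul, ← Algebra.smul_def, map_sub, map_smul, smul_eq_mul, h2, mul_comm, sub_self]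
        rw [mul_inv_cancel₀ hz, h1] at h0
        exact one_ne_zero h0
    have hne : L ≠ ⊥ := by
      intro hb
      have h := Submodule.finrank_sup_add_finrank_inf_eq (LinearMap.ker ψ) (LinearMap.ker T)
      rw [← hL, hb, finrank_bot, hker] at h
      have hs := Submodule.finrank_le (LinearMap.ker ψ ⊔ LinearMap.ker T)
      have hr := LinearMap.finrank_range_add_finrank_ker T
      have hr' := Submodule.finrank_le (LinearMap.range T)
      rw [Module.finrank_self] at hr'
      omega
    have hL1 : Module.finrank F L = 1 := by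
      have h' := Submodule.finrank_lt_finrank_of_lt hlt
      have h'' : Module.finrank F L ≠ 0 := fun h => hne (Submodule.finrank_eq_zero.1 h)
      omega
    obtain ⟨⟨v, hv⟩, hv0, hspan⟩ := finrank_eq_one_iff'.1 hL1
    have hv' : v ≠ 0 := fun h => hv0 (Subtype.ext h)
    obtain ⟨hv1, hv2⟩ := (hmemL v).1 hv
    refine ⟨(Units.mk0 v hv' : Eˣ ⧸ R), ⟨(memD _).2 hv1, ?_⟩, ?_⟩
    · rw [← QuotientGroup.mk_mul]
      exact (memD _).2 hv2
    · rintro y ⟨hy1, hy2⟩
      obtain ⟨k, rfl⟩ := QuotientGroup.mk_surjective y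
      rw [← QuotientGroup.mk_mul] at hy2
      obtain ⟨a, ha⟩ := hspan ⟨(k : E), (hmemL _).2 ⟨(memD _).1 hy1, (memD _).1 hy2⟩⟩
      have ha' : a • v = (k : E) := congrArg Subtype.val ha
      have ha0 : a ≠ 0 := fun h => k.ne_zero (by rw [← ha', h, zero_smul])
      symm
      rw [QuotientGroup.eq, hmemR]
      refine ⟨Units.mk0 a ha0, ?_⟩
      rw [Units.val_mul, ← ha', Algebra.smul_def, Units.val_inv_eq_inv_val, Units.val_mk0,
        Units.val_mk0, mul_comm (algebraMap F E a), inv_mul_cancel_left₀ hv']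
  -- the subgroup
  set μ := (QuotientGroup.mk' R).domRestrict (normOne F E)
  set H := (normOne F E).map (QuotientGroup.mk' R) with hH
  have hT3 : ∀ t ∈ μ.ker, t ^ 3 = 1 := by
    intro t ht
    obtain ⟨a, ha⟩ := (hmemR t).1 ((QuotientGroup.eq_one_iff _).1 ht)
    have hn := mem_normOne.1 t.2
    rw [← ha, Algebra.norm_algebraMap, h3] at hn
    refine Subtype.ext (Units.ext ?_)
    rw [Subgroup.coe_pow, Units.val_pow_eq_pow_val, ← ha, ← map_pow, hn, map_one]
    rfl
  have hT : Nat.card μ.ker = 1 ∨ Nat.card μ.ker = 3 := by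
    refine (Nat.dvd_prime Nat.prime_three).1 ?_
    rw [← IsCyclic.exponent_eq_card]
    exact Monoid.exponent_dvd_of_forall_pow_eq_one fun t => Subtype.ext (hT3 _ t.2)
  have hμ : μ.ker.index = Nat.card H := by
    rw [Subgroup.index_ker, hH, MonoidHom.domRestrict_range]
  have hidx : H.index = Nat.card μ.ker := by
    have e1 := μ.ker.card_mul_index
    rw [hμ, card_normOne h3, ← hn] at e1
    have e2 := H.card_mul_index
    rw [hP, ← e1, mul_comm (Nat.card μ.ker)] at e2
    exact Nat.eq_of_mul_eq_mul_left Nat.card_pos e2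
  refine Planar.planar_false hq hP H (hidx ▸ hT) hpl ?_ ?_
  · rw [← QuotientGroup.mk_one, memD, Units.val_one, h1]
    exact one_ne_zero
  · rintro x hx ⟨k, hk, rfl⟩
    rw [QuotientGroup.mk'_apply] at hx ⊢
    rw [← QuotientGroup.mk_inv]
    exact (memD _).2 (hsym k hk ((memD _).1 hx))

end CfsgLib.Geometric.SLThree
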