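import Cfsg.Agent.Lib.Geometric.Centres

/-!
Subgroups of `SL₃(q)` of index prime to `p` contain a full transvection group; subgroups of order
prime to `p` and of index prime to `ℓ`, for a prime `ℓ` dividing `q - 1`, contain a homology, and
the centre and axis of a homology satisfy a symmetry.
-/

set_option autoImplicit false

namespace CfsgLib.Geometric.SLThree

open Matrix

/-- A `p`-subgroup is conjugate into a subgroup of index prime to `p`, by an element of the ambient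
subgroup. -/
lemma exists_conj_le {G : Type*} [Group G] [Finite G] {S M T : Subgroup G} (p : ℕ) [Fact p.Prime]
    (hTS : T ≤ S) (hT : IsPGroup p T) (h : ¬ p ∣ M.relIndex S) :
    ∃ g ∈ S, ∀ t ∈ T, g⁻¹ * t * g ∈ M := by
  have hT' : IsPGroup p (T.subgroupOf S) :=
    hT.of_injective (Subgroup.subgroupOfEquivOfLe hTS).toMonoidHom (MulEquiv.injective _)
  obtain ⟨x, hx⟩ := hT'.nonempty_fixed_point_of_prime_not_dvd_card (S ⧸ M.subgroupOf S) h
  obtain ⟨g, rfl⟩ := QuotientGroup.mk_surjective x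
  refine ⟨g, g.2, fun t ht => ?_⟩
  have h1 : ((⟨t, hTS ht⟩ * g : S) : S ⧸ M.subgroupOf S) = (g : S ⧸ M.subgroupOf S) :=
    hx ⟨⟨t, hTS ht⟩, ht⟩
  have h2 : g⁻¹ * (⟨t, hTS ht⟩ * g) ∈ M.subgroupOf S := QuotientGroup.eq.1 h1.symm
  rw [mul_assoc]
  exact h2

variable {F : Type*} [Field F]

lemma ap_tv_pow {ι : Type} [Fintype ι] [DecidableEq ι] (v : ι → F) (φ : (ι → F) →ₗ[F] F)
    (h : φ v = 0) (k : ℕ) (x : ι → F) : ap (tv v φ h ^ k) x = x + ((k : F) * φ x) • v := by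
  induction k generalizing x with
  | zero => simp
  | succ k ih =>
    rw [pow_succ, ap_mul, ap_tv, ih, map_add, map_smul, h, smul_eq_mul, mul_zero, add_zero,
      add_assoc, ← add_smul]
    congr 2
    push_cast
    ring

/-- The transvections with a given centre. -/
def tvGroup (v : Fin 3 → F) : Subgroup (GL (Fin 3) F) where
  carrier := {g | ∃ (φ : (Fin 3 → F) →ₗ[F] F) (h : φ v = 0), g = tv v φ h}
  one_mem' := ⟨0, rfl, gl_ext fun x => by simp⟩
  mul_mem' := by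
    rintro _ _ ⟨φ, hφ, rfl⟩ ⟨ψ, hψ, rfl⟩
    exact ⟨φ + ψ, _, tv_add v φ ψ hφ hψ⟩
  inv_mem' := by
    rintro _ ⟨φ, hφ, rfl⟩
    exact ⟨-φ, _, tv_inv v φ hφ⟩

variable [Fintype F] (p : ℕ) [hp : Fact p.Prime] [CharP F p]
include hp

theorem exists_fullCentre {M : Subgroup (GL (Fin 3) F)}
    (h : ¬ p ∣ M.relIndex (Cfsg.Geo.specialLinear (Fin 3) F)) :
    ∃ w : Fin 3 → F, w ≠ 0 ∧ FullCentre M w := by
  obtain ⟨e, he⟩ := exists_ne (0 : Fin 3 → F)
  have hT : IsPGroup p (tvGroup e) := by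
    rintro ⟨_, φ, hφ, rfl⟩
    refine ⟨1, Subtype.ext (gl_ext fun x => ?_)⟩
    rw [Subgroup.coe_pow, pow_one, Subgroup.coe_one, ap_one]
    change ap (tv e φ hφ ^ p) x = x
    rw [ap_tv_pow, CharP.cast_eq_zero, zero_mul, zero_smul, add_zero]
  have hTS : tvGroup e ≤ Cfsg.Geo.specialLinear (Fin 3) F := by
    rintro _ ⟨φ, hφ, rfl⟩
    exact tv_mem_specialLinear e φ hφ
  obtain ⟨g, -, hg⟩ := exists_conj_le p hTS hT h
  refine ⟨ap g⁻¹ e, ap_ne_zero _ he, fun φ hφ => ?_⟩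
  have hψ : (φ.comp (apEquiv g⁻¹).toLinearMap) e = 0 := hφ
  have h1 := hg (tv e _ hψ) ⟨_, _, rfl⟩
  have h2 : tv (ap g⁻¹ e) φ hφ = g⁻¹ * tv e (φ.comp (apEquiv g⁻¹).toLinearMap) hψ * g := by
    apply gl_ext
    intro x
    simp [ap_mul, ap_add, ap_smul, ap_inv_ap]
  exact h2 ▸ h1

/-- The homology data. -/
structure IsHomology (h : GL (Fin 3) F) (a b : F) (c : Fin 3 → F) (φ : (Fin 3 → F) →ₗ[F] F) :
    Prop where
  one : φ c = 1
  apply : ∀ x, ap h x = a • x + ((b - a) * φ x) • c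

omit hp [Fintype F] [CharP F p] in
lemma IsHomology.apply_centre {h : GL (Fin 3) F} {a b : F} {c : Fin 3 → F}
    {φ : (Fin 3 → F) →ₗ[F] F} (hh : IsHomology h a b c φ) : ap h c = b • c := by
  rw [hh.apply, hh.one, mul_one, ← add_smul, add_sub_cancel]

omit [Fintype F] in
/-- Without transvections, a homology is given by its centre and eigenvalues. -/
lemma IsHomology.unique {M : Subgroup (GL (Fin 3) F)} (hpM : ¬ p ∣ Nat.card M)
    {h h' : GL (Fin 3) F} (hM : h ∈ M) (hM' : h' ∈ M) {a b : F} {c : Fin 3 → F}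
    {φ φ' : (Fin 3 → F) →ₗ[F] F} (hh : IsHomology h a b c φ) (hh' : IsHomology h' a b c φ') :
    h = h' := by
  set ψ : (Fin 3 → F) →ₗ[F] F := (b - a) • ((φ' - φ).comp (apEquiv h⁻¹).toLinearMap) with hψd
  have hb : b ≠ 0 := by
    rintro rfl
    have h1 := hh.apply_centre
    rw [zero_smul] at h1
    refine ap_ne_zero h ?_ h1
    intro hc
    simpa [hc] using hh.one
  have hinv : ap h⁻¹ c = b⁻¹ • c := by
    apply ap_injective h
    rw [ap_ap_inv, ap_smul, hh.apply_centre, smul_smul, inv_mul_cancel₀ hb, one_smul]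
  have hψ : ψ c = 0 := by simp [ψ, hinv, hh.one, hh'.one]
  have ht : tv c ψ hψ = h' * h⁻¹ := by
    apply gl_ext
    intro x
    rw [ap_tv, ap_mul, hh'.apply]
    conv_lhs => arg 1; rw [← ap_ap_inv h x, hh.apply]
    rw [add_assoc, ← add_smul]
    congr 2
    simp [ψ]
    ring
  have hmem : tv c ψ hψ ∈ M := ht ▸ mul_mem hM' (inv_mem hM)
  have hpow : tv c ψ hψ ^ p = 1 := gl_ext fun x => by
    rw [ap_tv_pow, CharP.cast_eq_zero, zero_mul, zero_smul, add_zero, ap_one]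
  have h1 : orderOf (tv c ψ hψ) ∣ Nat.gcd p (Nat.card M) :=
    Nat.dvd_gcd (orderOf_dvd_of_pow_eq_one hpow) (M.orderOf_dvd_natCard hmem)
  rw [(Nat.Prime.coprime_iff_not_dvd hp.out).2 hpM, Nat.dvd_one, orderOf_eq_one_iff, ht,
    mul_inv_eq_one] at h1
  exact h1.symm

omit [Fintype F] in
/-- The symmetry of centre and axis of a homology in a subgroup of order prime to `p`. -/
lemma IsHomology.symmetric {M : Subgroup (GL (Fin 3) F)} (hpM : ¬ p ∣ Nat.card M)
    {h : GL (Fin 3) F} (hM : h ∈ M) {a b : F} (hab : a ≠ b) {c : Fin 3 → F}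
    {φ : (Fin 3 → F) →ₗ[F] F} (hh : IsHomology h a b c φ)
    {u : GL (Fin 3) F} (hu : u ∈ M) (h0 : φ (ap u c) = 0) : φ (ap u⁻¹ c) = 0 := by
  set c' := ap u c with hc'
  set φ' := φ.comp (apEquiv u⁻¹).toLinearMap with hφ'
  have hh' : IsHomology (u * h * u⁻¹) a b c' φ' := by
    refine ⟨by simp [φ', c', ap_inv_ap, hh.one], fun x => ?_⟩
    simp [φ', c', ap_mul, hh.apply, ap_add, ap_smul, ap_ap_inv]
  set h' := u * h * u⁻¹ with hdef
  have hM' : h' ∈ M := mul_mem (mul_mem hu hM) (inv_mem hu)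
  have hc : ap h c' = a • c' := by rw [hh.apply, h0, mul_zero, zero_smul, add_zero]
  have ha : a ≠ 0 := by
    rintro rfl
    rw [zero_smul] at hc
    refine ap_ne_zero h ?_ hc
    intro h2
    simpa [h2] using hh'.one
  have hinv : ap h⁻¹ c' = a⁻¹ • c' := by
    apply ap_injective h
    rw [ap_ap_inv, ap_smul, hc, smul_smul, inv_mul_cancel₀ ha, one_smul]
  have hh'' : IsHomology (h * h' * h⁻¹) a b c' (a • φ'.comp (apEquiv h⁻¹).toLinearMap) := by
    refine ⟨?_, fun x => ?_⟩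
    · simp [hinv, hh'.one, ha]
    · rw [ap_mul, ap_mul, hh'.apply, ap_add, ap_smul, ap_smul, ap_ap_inv, hc, smul_smul]
      congr 2
      simp
      ring
  have he := IsHomology.unique p hpM (mul_mem (mul_mem hM hM') (inv_mem hM)) hM' hh'' hh'
  rw [mul_inv_eq_iff_eq_mul] at he
  have h1 := congrArg (fun g => ap g c) he
  simp only [ap_mul] at h1
  rw [hh'.apply, hh.apply_centre, ap_add, ap_smul, ap_smul, ap_smul, hc, hh.apply_centre,
    hh'.apply, smul_add, smul_smul, smul_smul, smul_smul, smul_smul, mul_comm b a,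
    add_right_inj] at h1
  have h2 : (((b - a) * φ' c) * a - b * ((b - a) * φ' c)) • c' = 0 := by
    rw [sub_smul, h1, sub_self]
  rcases smul_eq_zero.1 h2 with h3 | h3
  · have h4 : (b - a) * (b - a) * φ' c = 0 := by
      linear_combination (-1 : F) * h3
    simpa [φ', sub_eq_zero, hab.symm] using h4
  · have := hh'.one
    rw [h3, map_zero] at this
    exact absurd this zero_ne_one

omit hp [CharP F p] in
/-- A subgroup of index prime to `ℓ` contains a homology, for an element `ω` of order `ℓ` with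
`ω³ ≠ 1`. -/
lemma exists_homology {ℓ : ℕ} [Fact ℓ.Prime] {M : Subgroup (GL (Fin 3) F)} {ω : Fˣ}
    (hω : ω ^ ℓ = 1) (hω3 : ω ^ 3 ≠ 1)
    (hidx : ¬ ℓ ∣ M.relIndex (Cfsg.Geo.specialLinear (Fin 3) F)) :
    ∃ h ∈ M, ∃ a b : F, a ≠ b ∧ ∃ c φ, IsHomology h a b c φ := by
  set d : Fin 3 → Fˣ := ![ω, ω, (ω ^ 2)⁻¹] with hd
  let t : GL (Fin 3) F := Units.map (Matrix.diagonalRingHom (Fin 3) F).toMonoidHom
    (MulEquiv.piUnits.symm d)
  have ht : ∀ x i, ap t x i = (d i : F) * x i := fun x i => mulVec_diagonal _ _ i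
  have htS : t ∈ Cfsg.Geo.specialLinear (Fin 3) F := by
    rw [mem_specialLinear_iff]
    change (Matrix.diagonal fun i => (d i : F)).det = 1
    rw [det_diagonal, Fin.prod_univ_three]
    simp [d]
    field_simp
  have htℓ : t ^ ℓ = 1 := by
    have : (MulEquiv.piUnits.symm d) ^ ℓ = 1 := by
      rw [← map_pow, MulEquiv.map_eq_one_iff]
      ext i
      fin_cases i <;> simp [d, inv_pow, ← pow_mul, mul_comm 2 ℓ,
        pow_mul ω ℓ 2, hω]
    rw [← map_pow, this, map_one]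
  have hT : IsPGroup ℓ (Subgroup.zpowers t) := by
    rintro ⟨g, k, rfl⟩
    refine ⟨1, Subtype.ext ?_⟩
    rw [Subgroup.coe_pow, pow_one, Subgroup.coe_one]
    change (t ^ k) ^ ℓ = 1
    rw [← zpow_natCast, ← _root_.zpow_mul, mul_comm, _root_.zpow_mul, zpow_natCast, htℓ, _root_.one_zpow]
  obtain ⟨g, -, hg⟩ := exists_conj_le ℓ (Subgroup.zpowers_le.2 htS) hT hidx
  have htx : ∀ x, ap t x =
      (ω : F) • x + (((((ω ^ 2)⁻¹ : Fˣ) : F) - (ω : F)) * x 2) • (Pi.single 2 1 : Fin 3 → F) := by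
    intro x
    funext i
    rw [ht]
    fin_cases i <;> simp [d]
    ring
  refine ⟨_, hg t (Subgroup.mem_zpowers t), (ω : F), (((ω ^ 2)⁻¹ : Fˣ) : F), fun h => hω3 ?_,
    ap g⁻¹ (Pi.single 2 1), (LinearMap.proj (2 : Fin 3)).comp (apEquiv g).toLinearMap, ?_, ?_⟩
  · have h' : ω = (ω ^ 2)⁻¹ := Units.ext h
    rw [pow_succ]
    nth_rw 2 [h']
    exact mul_inv_cancel _
  · simp [ap_ap_inv]
  · intro x
    rw [ap_mul, ap_mul, htx, ap_add, ap_smul, ap_inv_ap, ap_smul]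
    rfl

end CfsgLib.Geometric.SLThree
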