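import Cfsg.Agent.Lib.Geometric.SLThree.Singer.Field
import Cfsg.Agent.Lib.ClassicalLinear.Sylow

/-!
The index of the normaliser of a Singer cycle in an overgroup is one modulo the order of the
projective Singer cycle.
-/

set_option autoImplicit false

namespace CfsgLib.Geometric.SLThree

/-- A fixed point and other orbits of size divisible by `m`. -/
lemma card_modEq_one {C X : Type*} [Group C] [MulAction C X] [Finite X] (m : ℕ) (x₀ : X)
    (hfix : ∀ c : C, c • x₀ = x₀) (h : ∀ x, x ≠ x₀ → m ∣ Nat.card (MulAction.orbit C x)) :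
    Nat.card X ≡ 1 [MOD m] := by
  classical
  have : Fintype (MulAction.orbitRel.Quotient C X) := Fintype.ofFinite _
  rw [← ZMod.natCast_eq_natCast_iff, Nat.card_congr (MulAction.selfEquivSigmaOrbits C X),
    Nat.card_sigma, Nat.cast_sum, Finset.sum_eq_single (Quotient.mk'' x₀)]
  · have hout : (Quotient.mk'' x₀ : MulAction.orbitRel.Quotient C X).out = x₀ := by
      obtain ⟨c, hc⟩ := MulAction.orbitRel_apply.1
        (Quotient.mk_out (s := MulAction.orbitRel C X) x₀)
      exact hc.symm.trans (hfix c)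
    have horb : MulAction.orbit C x₀ = {x₀} :=
      Set.ext fun y => ⟨fun ⟨c, hc⟩ => by rw [Set.mem_singleton_iff, ← hc]; exact hfix c,
        fun hy => hy.symm ▸ MulAction.mem_orbit_self x₀⟩
    rw [hout, horb, Nat.card_eq_one_iff_unique.2 ⟨inferInstance, inferInstance⟩]
  · intro ω _ hω
    rw [ZMod.natCast_eq_zero_iff]
    refine h _ fun he => hω ?_
    rw [← ω.out_eq', he]
  · simp

variable {F : Type*} [Field F] {E : Type*} [Field E] [Algebra F E]
  (ρ : E →ₐ[F] Matrix (Fin 3) (Fin 3) F)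

section

variable [Fintype F] (h3 : Module.finrank F E = 3)
include h3

theorem index_modEq {M : Subgroup (GL (Fin 3) F)}
    (hNM : Cfsg.Geo.subalgebraNormalizer ρ.range ⊓ Cfsg.Geo.specialLinear (Fin 3) F ≤ M)
    (hMS : M ≤ Cfsg.Geo.specialLinear (Fin 3) F) {d m : ℕ}
    (hd : ∀ t : ℕ, t ∣ Fintype.card F ^ 2 + Fintype.card F + 1 → t ∣ 9 → t ∣ d)
    (hdm : d * m = Fintype.card F ^ 2 + Fintype.card F + 1) :
    (Cfsg.Geo.subalgebraNormalizer ρ.range ⊓ Cfsg.Geo.specialLinear (Fin 3) F).relIndex M ≡ 1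
      [MOD m] := by
  have := finite_ext h3
  have : Finite E := Module.finite_of_finite F
  set N := Cfsg.Geo.subalgebraNormalizer ρ.range ⊓ Cfsg.Geo.specialLinear (Fin 3) F with hN
  have hCN : cyc ρ ≤ N := cyc_le ρ h3
  have hCM : cyc ρ ≤ M := hCN.trans hNM
  have : IsCyclic (normOne F E) := inferInstance
  have hcyc : IsCyclic (cyc ρ) := isCyclic_of_surjective
    ((normOne F E).equivMapOfInjective _ (unitHom_injective ρ)) (MulEquiv.surjective _)
  have hcyc' : IsCyclic ((cyc ρ).subgroupOf M) := isCyclic_of_surjective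
    (Subgroup.subgroupOfEquivOfLe hCM).symm (MulEquiv.surjective _)
  have hcard : Nat.card ((cyc ρ).subgroupOf M) = Fintype.card F ^ 2 + Fintype.card F + 1 := by
    rw [Nat.card_congr (Subgroup.subgroupOfEquivOfLe hCM).toEquiv, card_cyc ρ h3]
  refine card_modEq_one (C := (cyc ρ).subgroupOf M) (X := M ⧸ N.subgroupOf M) m
    ((1 : M) : M ⧸ N.subgroupOf M) (fun c => ?_) fun x hx => ?_
  · change (((c : M) * 1 : M) : M ⧸ N.subgroupOf M) = _
    rw [mul_one, QuotientGroup.eq, mul_one]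
    exact inv_mem (hCN c.2)
  obtain ⟨g, rfl⟩ := QuotientGroup.mk_surjective x
  set T := MulAction.stabilizer ((cyc ρ).subgroupOf M) (g : M ⧸ N.subgroupOf M)
  have hgN : (g : GL (Fin 3) F) ∉ Cfsg.Geo.subalgebraNormalizer ρ.range := fun h => hx (by
    rw [QuotientGroup.eq, mul_one]
    exact inv_mem (show (g : GL (Fin 3) F) ∈ N from ⟨h, hMS g.2⟩))
  have h9 : ∀ t ∈ T, t ^ 9 = 1 := by
    intro t ht
    have h1 : ((((t : M) * g : M)) : M ⧸ N.subgroupOf M) = (g : M ⧸ N.subgroupOf M) := ht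
    rw [QuotientGroup.eq] at h1
    have h2 : ((t : M) * g)⁻¹ * g ∈ N.subgroupOf M := h1
    rw [← inv_mem_iff] at h2
    simp only [mul_inv_rev, inv_inv, ← mul_assoc] at h2
    exact Subtype.ext (Subtype.ext (pow_nine_eq_one ρ h3 (hMS g.2) hgN t.2 h2.1))
  have hT9 : Nat.card T ∣ 9 := by
    rw [← IsCyclic.exponent_eq_card]
    exact Monoid.exponent_dvd_of_forall_pow_eq_one fun t => Subtype.ext (h9 _ t.2)
  have h1 := T.card_mul_index
  rw [hcard, MulAction.index_stabilizer, ← hdm, ← Nat.card_coe_set_eq] at h1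
  obtain ⟨k, hk⟩ := hd _ (hcard ▸ T.card_subgroup_dvd_card) hT9
  rw [hk, mul_assoc] at h1
  exact ⟨k, (Nat.eq_of_mul_eq_mul_left Nat.card_pos h1).trans (mul_comm k m)⟩

omit h3 in
/-- The order of `SL₃(q)`. -/
theorem card_specialLinear_three :
    Nat.card (Cfsg.Geo.specialLinear (Fin 3) F) = Fintype.card F ^ 3 *
      ((Fintype.card F - 1) ^ 2 * (Fintype.card F + 1) *
        (Fintype.card F ^ 2 + Fintype.card F + 1)) := by
  classical
  have e1 : Nat.card (Cfsg.Geo.specialLinear (Fin 3) F) * Nat.card Fˣ =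
      Nat.card (GL (Fin 3) F) := by
    rw [← Subgroup.card_mul_index (Cfsg.Geo.specialLinear (Fin 3) F)]
    congr 1
    rw [Subgroup.index_eq_card]
    exact (Nat.card_congr (QuotientGroup.quotientKerEquivOfSurjective _
      Matrix.GeneralLinearGroup.det_surjective).toEquiv).symm
  rw [ClassicalLinear.card_units, ClassicalLinear.card_GL_eq_pow_mul, Fintype.card_fin,
    Finset.prod_range_succ, Finset.prod_range_succ, Finset.prod_range_one] at e1
  obtain ⟨r, hr⟩ : ∃ r, Fintype.card F = r + 2 :=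
    ⟨Fintype.card F - 2, by have := Fintype.one_lt_card (α := F); omega⟩
  rw [hr] at e1 ⊢
  have h2 : (r + 2) ^ (1 + 1) - 1 = (r + 1) * (r + 3) := by
    apply Nat.sub_eq_of_eq_add
    ring
  have h3 : (r + 2) ^ (2 + 1) - 1 = (r + 1) * ((r + 2) ^ 2 + (r + 2) + 1) := by
    apply Nat.sub_eq_of_eq_add
    ring
  rw [h2, h3, pow_one, show r + 2 - 1 = r + 1 from rfl,
    show 3 * (3 - 1) / 2 = 3 from rfl] at e1
  rw [show r + 2 - 1 = r + 1 from rfl, show r + 2 + 1 = r + 3 from rfl]
  refine Nat.eq_of_mul_eq_mul_right (show 0 < r + 1 by omega) (e1.trans ?_)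
  ring

end

end CfsgLib.Geometric.SLThree
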