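import Mathlib

/-!
The arithmetic of indices of overgroups of the normaliser of a Singer cycle of `SL₃(q)`:
a divisor of the index in `SL₃(q)` that is one modulo the order of the projective Singer cycle is
one, involves the whole Sylow subgroup of the characteristic, or is the whole prime-to-`p` part.
-/

namespace CfsgLib.Geometric.SLThree.SingerArith

variable {p f q : ℕ}

lemma eq_of_modEq_lt {a b m : ℕ} (h : a ≡ b [MOD m]) (hb : b < m) : a = b ∨ m ≤ a := by
  rcases Nat.lt_or_ge a m with ha | ha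
  · left
    rw [Nat.ModEq, Nat.mod_eq_of_lt ha, Nat.mod_eq_of_lt hb] at h
    exact h
  · exact Or.inr ha

/-- The number `(q - 1) ^ 2 * (q + 1)`. -/
abbrev W (q : ℕ) : ℕ := (q - 1) ^ 2 * (q + 1)

lemma W_add (hq : 2 ≤ q) : W q + q ^ 2 + q = q ^ 3 + 1 := by
  obtain ⟨r, rfl⟩ : ∃ r, q = r + 1 := ⟨q - 1, by omega⟩
  simp only [W, Nat.add_sub_cancel]
  ring

lemma W_modEq (hq : 2 ≤ q) : W q ≡ 3 [MOD q ^ 2 + q + 1] := by
  obtain ⟨r, rfl⟩ : ∃ r, q = r + 2 := ⟨q - 2, by omega⟩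
  have h : W (r + 2) = 3 + r * ((r + 2) ^ 2 + (r + 2) + 1) := by
    have := W_add hq
    nlinarith
  rw [h, Nat.ModEq, Nat.add_mul_mod_self_right]

lemma not_dvd_W (hp : p.Prime) (hpq : p ∣ q) (hq : 2 ≤ q) : ¬ p ∣ W q := by
  intro h
  have h2 : p ∣ W q + q ^ 2 + q :=
    dvd_add (dvd_add h (dvd_pow hpq two_ne_zero)) hpq
  rw [W_add hq] at h2
  exact hp.not_dvd_one ((Nat.dvd_add_right (dvd_pow hpq three_ne_zero)).1 h2)

/-- Small powers, three not dividing the order of the Singer cycle. -/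
lemma low_one (hq : 2 ≤ q) {P a b : ℕ} (hP : P ≤ q) (hab : a * b = W q)
    (hb : b * P ≡ 1 [MOD q ^ 2 + q + 1]) :
    b * P = 1 ∨ a = 3 * P := by
  set n := q ^ 2 + q + 1 with hn
  have ha : a ≡ 3 * P [MOD n] := by
    have h1 : a * (b * P) ≡ a * 1 [MOD n] := hb.mul_left a
    rw [← mul_assoc, hab, mul_one] at h1
    exact h1.symm.trans ((W_modEq (by omega)).mul_right P)
  have h3 : 3 * P < n := by nlinarith
  rcases eq_of_modEq_lt ha h3 with h | h
  · exact Or.inr h
  have h1n : 1 < n := by nlinarith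
  rcases eq_of_modEq_lt hb h1n with h' | h'
  · exact Or.inl h'
  exfalso
  have h4 : n * n ≤ W q * P := by
    rw [← hab, mul_assoc]
    exact Nat.mul_le_mul h h'
  have h5 : W q * P ≤ W q * q := Nat.mul_le_mul_left _ hP
  have := W_add (q := q) (by omega)
  nlinarith

/-- Small powers, three dividing the order of the Singer cycle. -/
lemma low_three (hp : p.Prime) (hqp : q = p ^ f) (hq : 5 ≤ q) {m : ℕ}
    (hm : 3 * m = q ^ 2 + q + 1) {i a b : ℕ} (hi : i ≤ f) (hab : 3 * (a * b) = W q)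
    (hb : b * p ^ i ≡ 1 [MOD m]) : b * p ^ i = 1 ∨ a = p ^ i := by
  set P := p ^ i with hPdef
  have hPq : P ≤ q := hqp ▸ Nat.pow_le_pow_right hp.one_le hi
  have hPd : P ∣ q := hqp ▸ Nat.pow_dvd_pow p hi
  have ha : a ≡ P [MOD m] := by
    have h0 : a * b ≡ 1 [MOD m] := by
      have h1 : 3 * (a * b) ≡ 3 * 1 [MOD 3 * m] := by
        rw [hab, hm, mul_one]; exact W_modEq (by omega)
      exact Nat.ModEq.mul_left_cancel' (by norm_num) h1
    have h1 : a * (b * P) ≡ a * 1 [MOD m] := hb.mul_left a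
    rw [← mul_assoc, mul_one] at h1
    exact h1.symm.trans ((h0.mul_right P).trans (by rw [one_mul]))
  have hPm : P < m := by nlinarith
  rcases eq_of_modEq_lt ha hPm with h | h
  · exact Or.inr h
  have h1m : 1 < m := by nlinarith
  rcases eq_of_modEq_lt hb h1m with h' | h'
  · exact Or.inl h'
  exfalso
  have hW := W_add (q := q) (by omega)
  have hWq : W q < q ^ 3 := by nlinarith
  obtain ⟨k, hk⟩ : ∃ k, b * P = 1 + k * m :=
    ⟨b * P / m, by
      have h1 := Nat.div_add_mod (b * P) m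
      rw [show b * P % m = 1 from Eq.trans hb (Nat.mod_eq_of_lt h1m)] at h1
      linarith [Nat.mul_comm m (b * P / m)]⟩
  have hWP : W q * P = 3 * a * (1 + k * m) := by rw [← hab, ← hk]; ring
  have hk0 : 1 ≤ k := by
    rcases Nat.eq_zero_or_pos k with h0 | h0
    · subst h0; rw [zero_mul, add_zero] at hk; omega
    · exact h0
  have hbound : 3 * m * (1 + k * m) ≤ W q * P := by
    rw [hWP]
    exact Nat.mul_le_mul (Nat.mul_le_mul_left 3 h) le_rfl
  have hk2 : k ≤ 2 := by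
    by_contra hk3
    push Not at hk3
    have h3 : 3 * m * (1 + 3 * m) ≤ W q * q :=
      (Nat.mul_le_mul_left _ (by nlinarith)).trans (hbound.trans (Nat.mul_le_mul_left _ hPq))
    nlinarith
  -- `P` divides `k + 3`
  have hP5 : P ∣ k + 3 := by
    have h1 : P ∣ 3 * (1 + k * m) := (hk ▸ dvd_mul_left P b).mul_left 3
    have h2 : 3 * (1 + k * m) = k * q * (q + 1) + (k + 3) := by
      rw [mul_add, mul_left_comm, hm]; ring
    rw [h2] at h1
    exact (Nat.dvd_add_right ((hPd.mul_left k).mul_right (q + 1))).1 h1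
  have hP5' : P ≤ 5 := (Nat.le_of_dvd (by omega) hP5).trans (by omega)
  have hm1 : 3 * m * (1 + m) ≤ W q * 5 :=
    (Nat.mul_le_mul_left _ (by nlinarith)).trans (hbound.trans (Nat.mul_le_mul_left _ hP5'))
  have hq15 : q ≤ 15 := by
    have h5 : (q ^ 2 + q + 1) * (3 + (q ^ 2 + q + 1)) ≤ 15 * W q := by
      rw [← hm]; linarith
    have h6 : q ^ 2 * q ^ 2 ≤ (q ^ 2 + q + 1) * (3 + (q ^ 2 + q + 1)) :=
      Nat.mul_le_mul (by omega) (by omega)
    by_contra h16
    push Not at h16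
    have h7 : 16 * q ^ 3 ≤ q * q ^ 3 := Nat.mul_le_mul_right _ h16
    linarith [show q * q ^ 3 = q ^ 2 * q ^ 2 by ring]
  rcases Nat.eq_zero_or_pos i with hi0 | hi0
  · -- `P = 1`
    have hP1 : P = 1 := by rw [hPdef, hi0, pow_zero]
    have : 3 * m * (1 + m) ≤ W q * 1 :=
      (Nat.mul_le_mul_left _ (by nlinarith)).trans (hbound.trans (Nat.mul_le_mul_left _ hP1.le))
    nlinarith
  have hpk : p ∣ k + 3 := (dvd_pow_self p (by omega)).trans hP5
  have hp5 : p ≤ 5 := (Nat.le_of_dvd (by omega) hpk).trans (by omega)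
  have hpq : p ∣ q := hqp ▸ dvd_pow_self p (by
    intro h0; subst h0; simp at hqp; omega)
  have h3q : q % 3 = 1 := by
    have : 3 ∣ q ^ 2 + q + 1 := ⟨m, hm.symm⟩
    have h4 := Nat.mod_add_div q 3
    rcases (show q % 3 = 0 ∨ q % 3 = 1 ∨ q % 3 = 2 by omega) with h0 | h0 | h0
    · exfalso
      rw [Nat.dvd_iff_mod_eq_zero, Nat.add_mod, Nat.add_mod (q ^ 2), Nat.pow_mod, h0] at this
      simp at this
    · exact h0
    · exfalso
      rw [Nat.dvd_iff_mod_eq_zero, Nat.add_mod, Nat.add_mod (q ^ 2), Nat.pow_mod, h0] at this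
      simp at this
  have hu : ∀ l, l.Prime → l ∣ q → l = p := fun l hl hd =>
    (Nat.prime_dvd_prime_iff_eq hl hp).1 (hl.dvd_of_dvd_pow (hqp ▸ hd))
  rcases (show q = 7 ∨ q = 10 ∨ q = 13 by omega) with rfl | rfl | rfl
  · have := hu 7 (by norm_num) dvd_rfl
    omega
  · have := hu 2 (by norm_num) (by norm_num)
    have := hu 5 (by norm_num) (by norm_num)
    omega
  · have := hu 13 (by norm_num) dvd_rfl
    omega

/-- The congruences of the middle powers. -/
lemma middle_dvd (hq : 2 ≤ q) {s s' y z e m : ℕ} (hmn : m ∣ q ^ 2 + q + 1) (hss : s * s' = q)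
    (hyz : e * (y * z) = W q) (hy : y * (q * s) ≡ 1 [MOD m]) :
    m ∣ y * s + q + 1 ∧ m ∣ e * z * s' + 3 * q + 3 := by
  have hn : ((q ^ 2 + q + 1 : ℕ) : ZMod m) = 0 := (ZMod.natCast_eq_zero_iff _ _).2 hmn
  have h1 := (ZMod.natCast_eq_natCast_iff _ _ m).2 hy
  have h2 := (ZMod.natCast_eq_natCast_iff _ _ m).2 ((W_modEq hq).of_dvd hmn)
  rw [← hyz] at h2
  have h3 : (s : ZMod m) * s' = q := by rw [← Nat.cast_mul, hss]
  push_cast at h1 h2 hn
  constructor
  · rw [← ZMod.natCast_eq_zero_iff]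
    push_cast
    linear_combination ((q : ZMod m) ^ 2) * h1 - (y * s : ZMod m) * ((q : ZMod m) - 1) * hn + hn
  · rw [← ZMod.natCast_eq_zero_iff]
    push_cast
    linear_combination (-(e * z * s' : ZMod m)) * h1 + (e * y * z : ZMod m) * q * h3 +
      (q : ZMod m) ^ 2 * h2 + 3 * hn

/-- A square of `q` is no product of a number prime to `p` and a power below it. -/
lemma ne_sq (hp : p.Prime) (hqp : q = p ^ f) (hq : 2 ≤ q) {w u : ℕ} (hu : u ∣ q) (hpw : ¬ p ∣ w)
    (h : w * u = q ^ 2) : False := by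
  rcases (show w = 0 ∨ w = 1 ∨ 2 ≤ w by omega) with rfl | rfl | hw
  · exact hpw (dvd_zero p)
  · have := Nat.le_of_dvd (by omega) hu
    nlinarith
  · obtain ⟨l, hl, hd⟩ := Nat.exists_prime_and_dvd (show w ≠ 1 by omega)
    have h1 : l ∣ p ^ (f * 2) := by
      rw [pow_mul, ← hqp, ← h]
      exact hd.mul_right u
    rw [(Nat.prime_dvd_prime_iff_eq hl hp).1 (hl.dvd_of_dvd_pow h1)] at hd
    exact hpw hd

/-- Middle powers, three not dividing the order of the Singer cycle. -/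
lemma middle_one (hp : p.Prime) (hqp : q = p ^ f) (hq : 5 ≤ q) {s s' y z : ℕ} (hss : s * s' = q)
    (hs : 2 ≤ s) (hpy : ¬ p ∣ y) (hyz : y * z = W q)
    (hy : y * (q * s) ≡ 1 [MOD q ^ 2 + q + 1]) : False := by
  obtain ⟨⟨k, hk⟩, ⟨l, hl⟩⟩ := middle_dvd (e := 1) (by omega) dvd_rfl hss (by rw [one_mul, hyz]) hy
  have hW := W_add (q := q) (by omega)
  have hsq : s ∣ q := ⟨s', hss.symm⟩
  have hl0 : 1 ≤ l := Nat.pos_of_ne_zero fun h => by rw [h, mul_zero] at hl; omega
  have hk3 : 3 ≤ k := by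
    rcases (show k = 0 ∨ k = 1 ∨ k = 2 ∨ 3 ≤ k by omega) with rfl | rfl | rfl | h
    · omega
    · exact (ne_sq hp hqp (by omega) hsq hpy (by omega)).elim
    · have h1 : s ∣ 2 * q ^ 2 + q + 1 := by
        have h2 : 2 * q ^ 2 + q + 1 = y * s := by omega
        exact h2 ▸ dvd_mul_left s y
      have h3 : s ∣ 2 * q ^ 2 + q :=
        dvd_add ((hsq.trans (dvd_pow_self q two_ne_zero)).mul_left 2) hsq
      have := Nat.le_of_dvd one_pos ((Nat.dvd_add_right h3).1 h1)
      omega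
    · exact h
  have hA : 3 * (q ^ 2 + q + 1) ≤ y * s + q + 1 := by
    rw [hk, mul_comm]; exact Nat.mul_le_mul_left _ hk3
  have hB : q ^ 2 + q + 1 ≤ 1 * z * s' + 3 * q + 3 := by
    rw [hl]; exact Nat.le_mul_of_pos_right _ hl0
  obtain ⟨t, ht⟩ : ∃ t, q ^ 2 = 2 * q + 2 + t := ⟨q ^ 2 - 2 * q - 2, by
    have : 5 * q ≤ q ^ 2 := by nlinarith
    omega⟩
  have hprod : (y * s) * (1 * z * s') = W q * q := by rw [← hyz, ← hss]; ring
  have h4 : (3 * q ^ 2 + 2 * q + 2) * t ≤ W q * q := by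
    rw [← hprod]
    exact Nat.mul_le_mul (by omega) (by omega)
  nlinarith

/-- A middle quotient is one or at least five. -/
lemma quot_cases (hp : p.Prime) (hqp : q = p ^ f) (hq : 5 ≤ q) {m w u j : ℕ}
    (hm : 3 * m = q ^ 2 + q + 1) (hj : w * u + q + 1 = m * j) (hu : u ∣ q) (hu2 : 2 ≤ u)
    (hpw : ¬ p ∣ w) : (j = 1 ∧ u = 2) ∨ 5 ≤ j := by
  have h1 : 3 * (w * u) + 3 * q + 3 = j * (q ^ 2 + q) + j := by
    have h : 3 * (w * u + q + 1) = 3 * (m * j) := by rw [hj]
    rw [← mul_assoc, hm] at h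
    linarith
  have h2 : u ∣ 3 * (w * u) + 3 * q := dvd_add ((dvd_mul_left u w).mul_left 3) (hu.mul_left 3)
  have h3 : u ∣ j * (q ^ 2 + q) := (dvd_add (hu.trans (dvd_pow_self q two_ne_zero)) hu).mul_left j
  rcases (show j = 0 ∨ j = 1 ∨ j = 2 ∨ j = 3 ∨ j = 4 ∨ 5 ≤ j by omega) with
    rfl | rfl | rfl | rfl | rfl | h5
  · omega
  · left
    refine ⟨rfl, ?_⟩
    have h4 : u ∣ 2 := (Nat.dvd_add_right h2).1 (by
      have : 3 * (w * u) + 3 * q + 2 = 1 * (q ^ 2 + q) := by omega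
      rw [this]; exact h3)
    have := Nat.le_of_dvd (by norm_num) h4
    omega
  · exfalso
    have h4 : u ∣ 1 := (Nat.dvd_add_right h2).1 (by
      have : 3 * (w * u) + 3 * q + 1 = 2 * (q ^ 2 + q) := by omega
      rw [this]; exact h3)
    have := Nat.le_of_dvd one_pos h4
    omega
  · exact (ne_sq hp hqp (by omega) hu hpw (by omega)).elim
  · exfalso
    have h4 : u ∣ 1 := (Nat.dvd_add_right h3).1 (by
      have : 4 * (q ^ 2 + q) + 1 = 3 * (w * u) + 3 * q := by omega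
      rw [this]; exact h2)
    have := Nat.le_of_dvd one_pos h4
    omega
  · exact Or.inr h5

/-- A product of two middle quotients, one of which is at least five, is too large. -/
lemma too_big (hq : 5 ≤ q) {m A B : ℕ} (hm : 3 * m = q ^ 2 + q + 1) (hA : 5 * m ≤ A + q + 1)
    (hB : m ≤ B + q + 1) (hprod : 3 * (A * B) = W q * q) : False := by
  have hW := W_add (q := q) (by omega)
  obtain ⟨t, ht⟩ : ∃ t, q ^ 2 = 2 * q + 2 + t := ⟨q ^ 2 - 2 * q - 2, by
    have : 5 * q ≤ q ^ 2 := by nlinarith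
    omega⟩
  have h3A : 5 * q ^ 2 + 2 * q + 2 ≤ 3 * A := by omega
  have h3B : t ≤ 3 * B := by omega
  have h4 : (5 * q ^ 2 + 2 * q + 2) * t ≤ 3 * (W q * q) := by
    rw [← hprod, show 3 * (3 * (A * B)) = 3 * A * (3 * B) by ring]
    exact Nat.mul_le_mul h3A h3B
  nlinarith

/-- Middle powers, three dividing the order of the Singer cycle. -/
lemma middle_three (hp : p.Prime) (hqp : q = p ^ f) (hq : 5 ≤ q) {s s' y z m : ℕ}
    (hm : 3 * m = q ^ 2 + q + 1) (hss : s * s' = q) (hs : 2 ≤ s) (hs' : 2 ≤ s') (hpy : ¬ p ∣ y)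
    (hpz : ¬ p ∣ z) (hyz : 3 * (y * z) = W q) (hy : y * (q * s) ≡ 1 [MOD m]) : False := by
  have hmn : m ∣ q ^ 2 + q + 1 := ⟨3, by rw [← hm, mul_comm]⟩
  obtain ⟨⟨k, hk⟩, hl⟩ := middle_dvd (by omega) hmn hss hyz hy
  obtain ⟨l, hl'⟩ : m ∣ z * s' + q + 1 := by
    rw [show 3 * z * s' + 3 * q + 3 = 3 * (z * s' + q + 1) by ring] at hl
    refine Nat.Coprime.dvd_of_dvd_mul_left ?_ hl
    refine Nat.Coprime.symm ((Nat.Prime.coprime_iff_not_dvd Nat.prime_three).2 ?_)
    rintro ⟨c, hc⟩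
    have h5 : (q ^ 2 + q + 1) % 3 = 0 := by rw [← hm]; omega
    obtain ⟨c', hc' | hc' | hc'⟩ : ∃ c', q = 3 * c' ∨ q = 3 * c' + 1 ∨ q = 3 * c' + 2 :=
      ⟨q / 3, by omega⟩
    all_goals
      subst hc'
      ring_nf at hm h5
      omega
  rcases quot_cases hp hqp hq hm hk ⟨s', hss.symm⟩ hs hpy with ⟨rfl, e1⟩ | hk5
  · rcases quot_cases hp hqp hq hm hl' ⟨s, by rw [← hss, mul_comm]⟩ hs' hpz with ⟨rfl, e2⟩ | hl5
    · rw [e1, e2] at hss; omega
    · refine too_big hq hm (A := z * s') (B := y * s) ?_ (by omega) ?_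
      · rw [hl', mul_comm m]; exact Nat.mul_le_mul_right m hl5
      · rw [← hyz, ← hss]; ring
  · have hl0 : 1 ≤ l := Nat.pos_of_ne_zero fun h => by rw [h, mul_zero] at hl'; omega
    refine too_big hq hm (A := y * s) (B := z * s') ?_ ?_ ?_
    · rw [hk, mul_comm m]; exact Nat.mul_le_mul_right m hk5
    · rw [hl']; exact Nat.le_mul_of_pos_right m hl0
    · rw [← hyz, ← hss]; ring

/-- The possible indices. -/
theorem index_cases (hp : p.Prime) (hqp : q = p ^ f) (hf : f ≠ 0) (hq4 : q ≠ 4) {x m d : ℕ}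
    (hd : d = 1 ∨ d = 3) (hm : d * m = q ^ 2 + q + 1) (hx : x ≡ 1 [MOD m]) (hx0 : x ≠ 0)
    (hdvd : 3 * x ∣ q ^ 3 * W q) :
    x = 1 ∨ q ^ 3 ∣ 3 * x ∨ 3 * x = W q := by
  have hpq : p ∣ q := hqp ▸ dvd_pow_self p hf
  have hq0 : 0 < q := hqp ▸ pow_pos hp.pos f
  have hq2 : 2 ≤ q := le_trans hp.two_le (Nat.le_of_dvd hq0 hpq)
  obtain ⟨i, y, hy, rfl⟩ := Nat.exists_eq_pow_mul_and_not_dvd hx0 p hp.ne_one
  have hpW := not_dvd_W hp hpq hq2
  have hq3 : q ^ 3 = p ^ (3 * f) := by rw [hqp, ← pow_mul, mul_comm]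
  have hyW : y ∣ W q := by
    refine Nat.Coprime.dvd_of_dvd_mul_left ?_
      (((dvd_mul_left y (p ^ i)).trans (dvd_mul_left _ 3)).trans hdvd)
    rw [hq3]
    exact ((((Nat.Prime.coprime_iff_not_dvd hp).2 hy).pow_left _)).symm
  have hi : i ≤ 3 * f := by
    refine (Nat.pow_dvd_pow_iff_le_right hp.one_lt).1 ?_
    rw [← hq3]
    exact Nat.Coprime.dvd_of_dvd_mul_right (((Nat.Prime.coprime_iff_not_dvd hp).2 hpW).pow_left _)
      (((dvd_mul_right _ y).trans (dvd_mul_left _ 3)).trans hdvd)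
  rcases Nat.eq_or_lt_of_le hi with rfl | hi3
  · right; left
    rw [hq3]
    exact (dvd_mul_right _ y).mul_left 3
  have hy1 : y * p ^ i ≡ 1 [MOD m] := by rwa [mul_comm]
  have hpow : ∀ {j c : ℕ}, ¬ p ∣ c → c = p ^ j → j = 0 := fun {j c} hc he =>
    by_contra fun hj => hc (he ▸ dvd_pow_self p hj)
  have hpz : ∀ {c : ℕ}, c ∣ W q → ¬ p ∣ c := fun hc h => hpW (h.trans hc)
  have hinv : ∀ j, i + j = 3 * f → y ≡ p ^ j [MOD m] := by
    intro j hj
    have h1 : q ^ 3 ≡ 1 [MOD q ^ 2 + q + 1] := by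
      obtain ⟨r, rfl⟩ : ∃ r, q = r + 1 := ⟨q - 1, by omega⟩
      rw [show (r + 1) ^ 3 = 1 + r * ((r + 1) ^ 2 + (r + 1) + 1) by ring, Nat.ModEq,
        Nat.add_mul_mod_self_right]
    have h2 : p ^ i * p ^ j ≡ 1 [MOD m] := by
      rw [← pow_add, hj, ← hq3]
      exact h1.of_dvd ⟨d, by rw [← hm, mul_comm]⟩
    have h3 := hy1.mul_right (p ^ j)
    rw [one_mul, mul_assoc] at h3
    have h4 := (h2.mul_left y).symm
    rw [mul_one] at h4
    exact h4.trans h3
  have hsplit : f < i → i < 2 * f → q * p ^ (i - f) = p ^ i ∧ p ^ (i - f) * p ^ (2 * f - i) = q ∧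
      2 ≤ p ^ (i - f) ∧ 2 ≤ p ^ (2 * f - i) ∧ 5 ≤ q := by
    intro h1 h2
    refine ⟨by rw [hqp, ← pow_add]; congr 1; omega, by rw [hqp, ← pow_add]; congr 1; omega,
      le_trans hp.two_le (Nat.le_self_pow (by omega) p),
      le_trans hp.two_le (Nat.le_self_pow (by omega) p), ?_⟩
    have : p ^ 2 ≤ q := hqp ▸ Nat.pow_le_pow_right hp.one_le (by omega)
    have : 2 ^ 2 ≤ p ^ 2 := Nat.pow_le_pow_left hp.two_le 2
    omega
  rcases hd with rfl | rfl
  · rw [one_mul] at hm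
    subst hm
    obtain ⟨w, hw⟩ := hyW
    by_cases hlo : i ≤ f
    · rcases low_one hq2 (hqp ▸ Nat.pow_le_pow_right hp.one_le hlo)
        (show w * y = W q by rw [hw, mul_comm]) hy1 with h | h
      · left; rw [mul_comm]; exact h
      · have hi0 : i = 0 := by
          by_contra hi0
          exact hpz ⟨y, by rw [hw, mul_comm]⟩ (h ▸ (dvd_pow_self p hi0).mul_left 3)
        subst hi0
        right; right
        rw [h] at hw
        simp only [pow_zero, one_mul, mul_one] at hw ⊢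
        omega
    · by_cases hhi : 2 * f ≤ i
      · obtain ⟨j, hj⟩ : ∃ j, i + j = 3 * f := ⟨3 * f - i, by omega⟩
        have hPq : p ^ j ≤ q := hqp ▸ Nat.pow_le_pow_right hp.one_le (by omega)
        have hn3 : 3 < q ^ 2 + q + 1 := by nlinarith
        rcases eq_of_modEq_lt (hinv j hj) (by nlinarith) with h | h
        · have := hpow hy h; omega
        · right; left
          have hwP : w * p ^ j ≡ 3 [MOD q ^ 2 + q + 1] := by
            have h1 := (hinv j hj).mul_left w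
            rw [show w * y = W q by rw [hw, mul_comm]] at h1
            exact h1.symm.trans (W_modEq hq2)
          rcases eq_of_modEq_lt hwP hn3 with h' | h'
          · have h3 : p ^ j ∣ 3 := ⟨w, by rw [← h', mul_comm]⟩
            rw [hq3, ← hj, pow_add]
            calc p ^ i * p ^ j ∣ p ^ i * 3 := mul_dvd_mul_left _ h3
              _ ∣ 3 * (p ^ i * y) := ⟨y, by ring⟩
          · exfalso
            have h4 : (q ^ 2 + q + 1) * (q ^ 2 + q + 1) ≤ W q * q := by
              refine (Nat.mul_le_mul h h').trans ?_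
              rw [← mul_assoc, show y * w = W q from hw.symm]
              exact Nat.mul_le_mul_left _ hPq
            have := W_add (q := q) hq2
            nlinarith
      · exfalso
        obtain ⟨e1, e2, e3, -, hq5⟩ := hsplit (by omega) (by omega)
        exact middle_one hp hqp hq5 e2 e3 hy hw.symm (by rwa [e1])
  · have h3n : ¬ 3 ∣ q := by
      intro h
      have h1 : 3 ∣ q ^ 2 + q + 1 := ⟨m, hm.symm⟩
      exact absurd ((Nat.dvd_add_right (dvd_add (dvd_pow h two_ne_zero) h)).1 h1) (by norm_num)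
    have hq5 : 5 ≤ q := by
      by_contra h5
      push Not at h5
      interval_cases q <;> omega
    have hp3 : p ≠ 3 := fun h => h3n (h ▸ hpq)
    obtain ⟨z, hz⟩ : 3 * y ∣ W q := by
      refine Nat.Coprime.dvd_of_dvd_mul_left ?_
        ((mul_dvd_mul_left 3 (dvd_mul_left y (p ^ i))).trans hdvd)
      rw [hq3]
      refine Nat.Coprime.pow_right _ (Nat.Coprime.symm ((Nat.Prime.coprime_iff_not_dvd hp).2 ?_))
      intro h
      rcases hp.dvd_mul.1 h with h3 | h3
      · exact hp3 ((Nat.prime_dvd_prime_iff_eq hp Nat.prime_three).1 h3)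
      · exact hy h3
    have hzy : 3 * (z * y) = W q := by rw [hz]; ring
    have hzW : z ∣ W q := ⟨3 * y, by rw [hz]; ring⟩
    by_cases hlo : i ≤ f
    · rcases low_three hp hqp hq5 hm hlo hzy hy1 with h | h
      · left; rw [mul_comm]; exact h
      · have h0 := hpow (hpz hzW) h
        subst h0
        rw [pow_zero] at h
        subst h
        right; right
        rw [pow_zero, one_mul, hz, mul_one]
    · by_cases hhi : 2 * f ≤ i
      · obtain ⟨j, hj⟩ : ∃ j, i + j = 3 * f := ⟨3 * f - i, by omega⟩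
        have hzP : z * p ^ j ≡ 1 [MOD m] := by
          have h0 : z * y ≡ 1 [MOD m] := by
            have h1 : 3 * (z * y) ≡ 3 * 1 [MOD 3 * m] := by
              rw [hzy, hm, mul_one]; exact W_modEq hq2
            exact Nat.ModEq.mul_left_cancel' (by norm_num) h1
          exact ((hinv j hj).mul_left z).symm.trans h0
        rcases low_three hp hqp hq5 hm (show j ≤ f by omega)
          (show 3 * (y * z) = W q by rw [mul_comm y z, hzy]) hzP with h | h
        · have : p ^ j = 1 := Nat.eq_one_of_dvd_one ⟨z, by rw [← h, mul_comm]⟩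
          have hj0 : j = 0 := (Nat.pow_eq_one.1 this).resolve_left hp.ne_one
          omega
        · have := hpow hy h; omega
      · exfalso
        obtain ⟨e1, e2, e3, e4, -⟩ := hsplit (by omega) (by omega)
        exact middle_three hp hqp hq5 hm e2 e3 e4 hy (hpz hzW) (by rw [mul_comm y z, hzy]) (by rwa [e1])

end CfsgLib.Geometric.SLThree.SingerArith
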