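import Cfsg.Agent.Lib.Geometric.Basic

/-!
A cubic field of matrices: its elements of norm one and its normaliser in `SL₃(q)`.
-/

set_option autoImplicit false

namespace CfsgLib.Geometric.SLThree

open Matrix

variable {F : Type*} [Field F] {E : Type*} [Field E] [Algebra F E]
  (ρ : E →ₐ[F] Matrix (Fin 3) (Fin 3) F)

/-- The invertible matrices of the non-zero elements of the field. -/
def unitHom : Eˣ →* GL (Fin 3) F :=
  Units.map (ρ : E →* Matrix (Fin 3) (Fin 3) F)

@[simp] lemma coe_unitHom (k : Eˣ) :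
    (unitHom ρ k : Matrix (Fin 3) (Fin 3) F) = ρ k := rfl

lemma emb_injective : Function.Injective ρ := ρ.toRingHom.injective

lemma unitHom_injective : Function.Injective (unitHom ρ) :=
  Units.map_injective (emb_injective ρ)

/-- The units of norm one. -/
noncomputable def normOne (F E : Type*) [Field F] [Field E] [Algebra F E] : Subgroup Eˣ :=
  (Units.map (Algebra.norm F (S := E))).ker

lemma mem_normOne {k : Eˣ} : k ∈ normOne F E ↔ Algebra.norm F (k : E) = 1 := by
  rw [normOne, MonoidHom.mem_ker, Units.ext_iff]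
  rfl

/-- The Singer cycle. -/
noncomputable def cyc : Subgroup (GL (Fin 3) F) := (normOne F E).map (unitHom ρ)

lemma mulVec_ne_zero {k : E} (hk : k ≠ 0) {v : Fin 3 → F} (hv : v ≠ 0) : ρ k *ᵥ v ≠ 0 := by
  intro h
  apply hv
  calc v = (ρ k⁻¹ * ρ k) *ᵥ v := by rw [← map_mul, inv_mul_cancel₀ hk, map_one, one_mulVec]
    _ = 0 := by rw [← mulVec_mulVec, h, mulVec_zero]

section

variable (h3 : Module.finrank F E = 3)
include h3

lemma finite_ext : Module.Finite F E := Module.finite_of_finrank_pos (by rw [h3]; norm_num)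

/-- The identification of the field with the space by the orbit of a non-zero vector. -/
noncomputable def orbEquiv (v : Fin 3 → F) (hv : v ≠ 0) : E ≃ₗ[F] (Fin 3 → F) :=
  LinearEquiv.ofBijective
    { toFun := fun k => ρ k *ᵥ v
      map_add' := fun a b => by rw [map_add, add_mulVec]
      map_smul' := fun c a => by rw [map_smul, smul_mulVec, RingHom.id_apply] }
    (by
      have := finite_ext h3
      have hinj : Function.Injective fun k => ρ k *ᵥ v := by
        intro a b hab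
        by_contra hne
        exact mulVec_ne_zero ρ (sub_ne_zero.2 hne) hv (by
          rw [map_sub, sub_mulVec]; exact sub_eq_zero.2 hab)
      refine ⟨hinj, ?_⟩
      exact (LinearMap.injective_iff_surjective_of_finrank_eq_finrank
        (by rw [h3, Module.finrank_fin_fun])).1 hinj)

@[simp] lemma orbEquiv_apply (v : Fin 3 → F) (hv : v ≠ 0) (k : E) :
    orbEquiv ρ h3 v hv k = ρ k *ᵥ v := rfl

lemma det_emb (k : E) : (ρ k).det = Algebra.norm F k := by
  obtain ⟨v, hv⟩ := exists_ne (0 : Fin 3 → F)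
  set e := orbEquiv ρ h3 v hv with he
  have h : Matrix.toLin' (ρ k) = (e : E →ₗ[F] (Fin 3 → F)).comp
      ((Algebra.lmul F E k).comp (e.symm : (Fin 3 → F) →ₗ[F] E)) := by
    refine LinearMap.ext fun x => ?_
    obtain ⟨y, rfl⟩ := e.surjective x
    rw [Matrix.toLin'_apply, LinearMap.comp_apply, LinearMap.comp_apply, LinearEquiv.coe_coe,
      LinearEquiv.coe_coe, e.symm_apply_apply, Algebra.coe_lmul_eq_mul, LinearMap.mul_apply',
      he, orbEquiv_apply, orbEquiv_apply, map_mul, mulVec_mulVec]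
  rw [← LinearMap.det_toLin', h, LinearMap.det_conj, Algebra.norm_apply]

lemma unitHom_mem_specialLinear {k : Eˣ} :
    unitHom ρ k ∈ Cfsg.Geo.specialLinear (Fin 3) F ↔ k ∈ normOne F E := by
  rw [mem_specialLinear_iff, coe_unitHom, det_emb ρ h3, mem_normOne]

lemma cyc_le_specialLinear : cyc ρ ≤ Cfsg.Geo.specialLinear (Fin 3) F := by
  rintro _ ⟨k, hk, rfl⟩
  exact (unitHom_mem_specialLinear ρ h3).2 hk

/-- A matrix commuting with the field lies in it. -/
lemma mem_range_of_commute {g : GL (Fin 3) F}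
    (hg : ∀ e : E, (g : Matrix (Fin 3) (Fin 3) F) * ρ e = ρ e * g) :
    ∃ k : Eˣ, unitHom ρ k = g := by
  have hv : (Pi.single 0 1 : Fin 3 → F) ≠ 0 := fun h => one_ne_zero (α := F) (by
    simpa using congrFun h 0)
  obtain ⟨k, hk⟩ := (orbEquiv ρ h3 _ hv).surjective (ap g (Pi.single 0 1))
  rw [orbEquiv_apply] at hk
  have he : ρ k = g := by
    refine ext_of_mulVec_single fun i => ?_
    obtain ⟨e, he⟩ := (orbEquiv ρ h3 _ hv).surjective (Pi.single i 1)
    rw [orbEquiv_apply] at he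
    rw [← he, mulVec_mulVec, mulVec_mulVec, ← map_mul, mul_comm, map_mul, ← mulVec_mulVec, hk, hg,
      ← mulVec_mulVec]
    rfl
  have hk0 : k ≠ 0 := by
    rintro rfl
    exact g.ne_zero (by rw [← he, map_zero])
  exact ⟨Units.mk0 k hk0, Units.ext he⟩

omit h3 in
lemma exists_algEquiv_of_conj [Finite E] {g : GL (Fin 3) F}
    (hg : ∀ e : E, (g : Matrix (Fin 3) (Fin 3) F) * ρ e * ((g⁻¹ : GL (Fin 3) F) : Matrix _ _ F) ∈
      ρ.range) :
    ∃ τ : E ≃ₐ[F] E, ∀ e, (g : Matrix (Fin 3) (Fin 3) F) * ρ e = ρ (τ e) * g := by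
  choose f hf using fun e => (AlgHom.mem_range ρ).1 (hg e)
  have hf' : ∀ e, (g : Matrix (Fin 3) (Fin 3) F) * ρ e = ρ (f e) * g := fun e => by
    rw [hf, mul_assoc _ _ (g : Matrix (Fin 3) (Fin 3) F), Units.inv_mul, mul_one]
  have hcancel : ∀ a b : E, ρ a * g = ρ b * g → a = b := fun a b h =>
    emb_injective ρ (g.isUnit.mul_right_cancel h)
  let f' : E →ₐ[F] E :=
    { toFun := f
      map_one' := hcancel _ _ (by rw [← hf', map_one, mul_one, one_mul])
      map_mul' := fun a b => hcancel _ _ (by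
        rw [← hf', map_mul, map_mul, mul_assoc (ρ (f a)), ← hf', ← mul_assoc, hf', mul_assoc])
      map_zero' := hcancel _ _ (by rw [← hf', map_zero, mul_zero, zero_mul])
      map_add' := fun a b => hcancel _ _ (by
        rw [← hf', map_add, map_add, mul_add, add_mul, hf', hf'])
      commutes' := fun c => hcancel _ _ (by
        rw [← hf', AlgHom.commutes, Algebra.commutes]) }
  exact ⟨AlgEquiv.ofBijective f'
    ⟨f'.toRingHom.injective, Finite.injective_iff_surjective.1 f'.toRingHom.injective⟩, hf'⟩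

omit h3 in
lemma mem_normalizer_iff [Finite E] {g : GL (Fin 3) F} :
    g ∈ Cfsg.Geo.subalgebraNormalizer ρ.range ↔
      ∃ τ : E ≃ₐ[F] E, ∀ e, (g : Matrix (Fin 3) (Fin 3) F) * ρ e = ρ (τ e) * g := by
  constructor
  · exact fun hg => exists_algEquiv_of_conj ρ fun e => (hg _).1 ((AlgHom.mem_range ρ).2 ⟨e, rfl⟩)
  · rintro ⟨τ, hτ⟩ k
    constructor
    · rintro ⟨e, rfl⟩
      refine ⟨τ e, ?_⟩
      change ρ (τ e) = (g : Matrix (Fin 3) (Fin 3) F) * ρ e * ((g⁻¹ : GL (Fin 3) F) : Matrix _ _ F)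
      rw [hτ, mul_assoc, Units.mul_inv, mul_one]
    · rintro ⟨e, he⟩
      refine ⟨τ.symm e, g.isUnit.mul_left_cancel ?_⟩
      change (g : Matrix (Fin 3) (Fin 3) F) * ρ (τ.symm e) = _
      rw [hτ, τ.apply_symm_apply]
      change ρ e = _ at he
      rw [he, mul_assoc _ _ (g : Matrix (Fin 3) (Fin 3) F), Units.inv_mul, mul_one]

omit h3 in
lemma cyc_le_normalizer [Finite E] : cyc ρ ≤ Cfsg.Geo.subalgebraNormalizer ρ.range := by
  rintro _ ⟨k, -, rfl⟩
  exact (mem_normalizer_iff ρ).2 ⟨AlgEquiv.refl, fun e => by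
    rw [coe_unitHom, AlgEquiv.coe_refl, id_eq, ← map_mul, ← map_mul, mul_comm]⟩

lemma cyc_le [Finite E] : cyc ρ ≤
    Cfsg.Geo.subalgebraNormalizer ρ.range ⊓ Cfsg.Geo.specialLinear (Fin 3) F :=
  le_inf (cyc_le_normalizer ρ) (cyc_le_specialLinear ρ h3)

section Fin

variable [Fintype F]

omit h3 in
/-- The group of norm-one units of the cubic field has order `q² + q + 1`. -/
lemma card_normOne_mul [Finite E] :
    Nat.card (normOne F E) * (Fintype.card F - 1) = Nat.card E - 1 := by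
  classical
  rw [← Nat.card_units, ← (normOne F E).card_mul_index]
  congr 1
  rw [Subgroup.index_eq_card, ← Fintype.card_units, ← Nat.card_eq_fintype_card]
  exact (Nat.card_congr (QuotientGroup.quotientKerEquivOfSurjective _
    (FiniteField.unitsMap_norm_surjective F E)).toEquiv).symm

lemma card_normOne :
    Nat.card (normOne F E) = Fintype.card F ^ 2 + Fintype.card F + 1 := by
  have := finite_ext h3
  have : Finite E := Module.finite_of_finite F
  have h := card_normOne_mul (F := F) (E := E)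
  rw [Module.natCard_eq_pow_finrank (K := F) (V := E), h3, Nat.card_eq_fintype_card (α := F)] at h
  obtain ⟨r, hr⟩ : ∃ r, Fintype.card F = r + 2 :=
    ⟨Fintype.card F - 2, by have := Fintype.one_lt_card (α := F); omega⟩
  rw [hr] at h ⊢
  rw [show (r + 2) ^ 3 - 1 = ((r + 2) ^ 2 + (r + 2) + 1) * (r + 2 - 1) by
    rw [show r + 2 - 1 = r + 1 by omega]
    apply Nat.sub_eq_of_eq_add
    ring] at h
  exact Nat.eq_of_mul_eq_mul_right (by omega) h

lemma card_cyc : Nat.card (cyc ρ) = Fintype.card F ^ 2 + Fintype.card F + 1 := by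
  rw [cyc, ← Nat.card_congr ((normOne F E).equivMapOfInjective _ (unitHom_injective ρ)).toEquiv,
    card_normOne h3]

lemma card_galois : Nat.card (E ≃ₐ[F] E) = 3 := by
  have := finite_ext h3
  have : Finite E := Module.finite_of_finite F
  rw [IsGalois.card_aut_eq_finrank, h3]

/-- The normaliser of the field in `SL₃` has order `3 (q² + q + 1)`, and its cubes lie in the
Singer cycle. -/
theorem normalizer_data :
    Nat.card ↥(Cfsg.Geo.subalgebraNormalizer ρ.range ⊓ Cfsg.Geo.specialLinear (Fin 3) F) =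
        3 * (Fintype.card F ^ 2 + Fintype.card F + 1) ∧
      ∀ g ∈ Cfsg.Geo.subalgebraNormalizer ρ.range ⊓ Cfsg.Geo.specialLinear (Fin 3) F,
        g ^ 3 ∈ cyc ρ := by
  classical
  have := finite_ext h3
  have : Finite E := Module.finite_of_finite F
  set N := Cfsg.Geo.subalgebraNormalizer ρ.range ⊓ Cfsg.Geo.specialLinear (Fin 3) F
  choose π hπ using fun g : N => (mem_normalizer_iff ρ).1 g.2.1
  have huniq : ∀ (g : N) (τ : E ≃ₐ[F] E),
      (∀ e, ((g : GL (Fin 3) F) : Matrix (Fin 3) (Fin 3) F) * ρ e = ρ (τ e) * (g : GL (Fin 3) F)) →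
      π g = τ := fun g τ hτ => AlgEquiv.ext fun e => emb_injective ρ
    ((g : GL (Fin 3) F).isUnit.mul_right_cancel ((hπ g e).symm.trans (hτ e)))
  let μN : N →* (E ≃ₐ[F] E) := MonoidHom.mk' π fun a b => huniq _ _ fun e => by
    rw [Subgroup.coe_mul, Units.val_mul, mul_assoc, hπ b e, ← mul_assoc, hπ a, mul_assoc]
    rfl
  have hker : ∀ g : N, g ∈ μN.ker ↔ (g : GL (Fin 3) F) ∈ cyc ρ := by
    intro g
    rw [MonoidHom.mem_ker]
    constructor
    · intro h
      obtain ⟨k, hk⟩ := mem_range_of_commute ρ h3 (g := g) fun e => by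
        rw [hπ g e, show π g = 1 from h]; rfl
      exact ⟨k, (unitHom_mem_specialLinear ρ h3).1 (hk ▸ g.2.2), hk⟩
    · rintro ⟨k, -, hk⟩
      refine huniq _ _ fun e => ?_
      rw [← hk, coe_unitHom, AlgEquiv.one_apply, ← map_mul, ← map_mul, mul_comm]
  have hsurj : Function.Surjective μN := by
    intro σ
    have hv : (Pi.single 0 1 : Fin 3 → F) ≠ 0 := fun h => one_ne_zero (α := F) (by
      simpa using congrFun h 0)
    set Φ := orbEquiv ρ h3 _ hv with hΦ
    have hΦmul : ∀ a b : E, ρ a *ᵥ Φ b = Φ (a * b) := fun a b => by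
      rw [hΦ, orbEquiv_apply, orbEquiv_apply, map_mul, mulVec_mulVec]
    set g₀ : GL (Fin 3) F := ofEquiv ((Φ.symm.trans σ.toLinearEquiv).trans Φ) with hg₀
    have hg₀Φ : ∀ x, ap g₀ (Φ x) = Φ (σ x) := fun x => by
      rw [hg₀, ap_ofEquiv]; simp
    have hcomm : ∀ e, (g₀ : Matrix (Fin 3) (Fin 3) F) * ρ e = ρ (σ e) * g₀ := fun e => by
      refine ext_of_mulVec_single fun i => ?_
      obtain ⟨y, hy⟩ := Φ.surjective (Pi.single i 1)
      rw [← hy, ← mulVec_mulVec, ← mulVec_mulVec]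
      change ap g₀ (ρ e *ᵥ Φ y) = ρ (σ e) *ᵥ ap g₀ (Φ y)
      rw [hg₀Φ, hΦmul, hΦmul, hg₀Φ, map_mul]
    obtain ⟨k, hk⟩ := FiniteField.unitsMap_norm_surjective F E
      (Matrix.GeneralLinearGroup.det g₀)⁻¹
    have hS : unitHom ρ k * g₀ ∈ Cfsg.Geo.specialLinear (Fin 3) F := by
      rw [mem_specialLinear_iff, Units.val_mul, Matrix.det_mul, coe_unitHom, det_emb ρ h3,
        ← coe_det_eq, show Algebra.norm F (k : E) = (((Matrix.GeneralLinearGroup.det g₀)⁻¹ : Fˣ) : F)
          from congrArg Units.val hk, Units.inv_mul]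
    have hc : ∀ e, ((unitHom ρ k * g₀ : GL (Fin 3) F) : Matrix (Fin 3) (Fin 3) F) * ρ e =
        ρ (σ e) * (unitHom ρ k * g₀ : GL (Fin 3) F) := fun e => by
      rw [Units.val_mul, coe_unitHom, mul_assoc, hcomm, ← mul_assoc, ← map_mul, mul_comm, map_mul,
        mul_assoc]
    exact ⟨⟨_, (mem_normalizer_iff ρ).2 ⟨σ, hc⟩, hS⟩, huniq _ _ hc⟩
  constructor
  · rw [← μN.ker.card_mul_index, Subgroup.index_ker, MonoidHom.range_eq_top.2 hsurj,
      Subgroup.card_top, card_galois h3, mul_comm]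
    congr 1
    rw [← card_cyc ρ h3]
    have hle : cyc ρ ≤ N := cyc_le ρ h3
    refine Nat.card_congr ⟨fun g => ⟨_, (hker g.1).1 g.2⟩,
      fun g => ⟨⟨g.1, hle g.2⟩, (hker _).2 g.2⟩, fun g => rfl, fun g => rfl⟩
  · intro g hg
    have h : μN (⟨g, hg⟩ ^ 3) = 1 := by
      rw [map_pow]
      have h := orderOf_dvd_natCard (μN ⟨g, hg⟩)
      rw [card_galois h3] at h
      exact orderOf_dvd_iff_pow_eq_one.1 h
    exact (hker _).1 h

/-- If an element of the cycle is conjugated into the normaliser by an element outside it, its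
ninth power is trivial. -/
lemma pow_nine_eq_one {g c : GL (Fin 3) F}
    (hgS : g ∈ Cfsg.Geo.specialLinear (Fin 3) F)
    (hg : g ∉ Cfsg.Geo.subalgebraNormalizer ρ.range) (hc : c ∈ cyc ρ)
    (hconj : g⁻¹ * c * g ∈ Cfsg.Geo.subalgebraNormalizer ρ.range) : c ^ 9 = 1 := by
  have := finite_ext h3
  have : Finite E := Module.finite_of_finite F
  have hS : g⁻¹ * c * g ∈ Cfsg.Geo.specialLinear (Fin 3) F :=
    mul_mem (mul_mem (inv_mem hgS) (cyc_le_specialLinear ρ h3 hc)) hgS
  have h3' : (g⁻¹ * c * g) ^ 3 ∈ cyc ρ := (normalizer_data ρ h3).2 _ ⟨hconj, hS⟩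
  obtain ⟨k, hk, rfl⟩ := hc
  obtain ⟨k', -, hk'⟩ := h3'
  rw [show (g⁻¹ * unitHom ρ k * g) ^ 3 = g⁻¹ * unitHom ρ (k ^ 3) * g by
    rw [map_pow]; simp [pow_succ, mul_assoc]] at hk'
  let θ : E →ₐ[F] Matrix (Fin 3) (Fin 3) F :=
    { toFun := fun e =>
        ((g⁻¹ : GL (Fin 3) F) : Matrix (Fin 3) (Fin 3) F) * ρ e * (g : Matrix (Fin 3) (Fin 3) F)
      map_one' := by rw [map_one, mul_one]; exact Units.inv_mul g
      map_mul' := fun a b => by
        rw [map_mul]; simp only [mul_assoc, Units.mul_inv_cancel_left]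
      map_zero' := by rw [map_zero, mul_zero, zero_mul]
      map_add' := fun a b => by rw [map_add, mul_add, add_mul]
      commutes' := fun r => by
        rw [AlgHom.commutes, ← Algebra.commutes, mul_assoc, Units.inv_mul, mul_one] }
  have : IsSimpleOrder (Subalgebra F E) :=
    Subalgebra.isSimpleOrder_of_finrank_prime F E (h3 ▸ Nat.prime_three)
  rcases eq_bot_or_eq_top (ρ.range.comap θ) with hbot | htop
  · have hmem : ((k ^ 3 : Eˣ) : E) ∈ ρ.range.comap θ :=
      ⟨(k' : E), by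
        show ρ k' = _
        rw [← coe_unitHom, hk']
        rfl⟩
    rw [hbot, Algebra.mem_bot] at hmem
    obtain ⟨a, ha⟩ := hmem
    have hn : Algebra.norm F ((k ^ 3 : Eˣ) : E) = 1 := mem_normOne.1 (pow_mem hk 3)
    rw [← ha, Algebra.norm_algebraMap, h3] at hn
    have h9 : k ^ 9 = 1 := Units.ext (by
      rw [show (9 : ℕ) = 3 * 3 from rfl, pow_mul, Units.val_pow_eq_pow_val, ← ha, ← map_pow, hn,
        map_one, Units.val_one])
    rw [← map_pow, h9, map_one]
  · exfalso
    refine hg (inv_inv g ▸ inv_mem ?_)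
    refine (mem_normalizer_iff ρ).2 (exists_algEquiv_of_conj ρ fun e => ?_)
    rw [inv_inv]
    have he : e ∈ ρ.range.comap θ := htop ▸ Algebra.mem_top
    exact he

end Fin

end

end CfsgLib.Geometric.SLThree
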